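import Cfsg.Agent.AutPSU.Main
import Cfsg.Agent.AutPSL.Descent
import Cfsg.Agent.AutPSL.GraphField
import Cfsg.Agent.AutPSp.FieldClasses
import Cfsg.Agent.Classical.Unitary.LangFinite
import Cfsg.Agent.LinAlg.Witt.Std

/-!
# Field automorphisms of `PSU_n(q)` of odd order
-/

set_option autoImplicit false
set_option linter.unusedSectionVars false

namespace CfsgLib.AutPSUField

open Matrix CfsgLib.Unitary CfsgLib.AutPSU

variable {F : Type*} [Field F] {n q : ℕ}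

/-- Unitary norm one units. -/
def mu (F : Type*) [Field F] (q : ℕ) : Subgroup Fˣ := (powMonoidHom (q + 1) : Fˣ →* Fˣ).ker

theorem mem_mu {u : Fˣ} : u ∈ mu F q ↔ (u : F) ^ (q + 1) = 1 := by
  rw [mu, MonoidHom.mem_ker, powMonoidHom_apply, Units.ext_iff, Units.val_pow_eq_pow_val, Units.val_one]

theorem coe_mapGU (σ : RingAut F) (g : ↥(Cfsg.GU n F q)) :
    (mapGU σ g : GL (Fin n) F) = AutPSL.glAut σ g.1 := Units.ext (by ext; rfl)

theorem scalar_mem_GU {u : Fˣ} (hu : u ∈ mu F q) : GeneralLinearGroup.scalar (Fin n) u ∈ Cfsg.GU n F q := by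
  refine mem_GU.2 fun x y => ?_
  have h : ∀ z : Fin n → F, (GeneralLinearGroup.scalar (Fin n) u : Matrix (Fin n) (Fin n) F) *ᵥ z = (u : F) • z := by
    intro z
    funext i
    simp [GeneralLinearGroup.coe_scalar, Matrix.scalar_apply, Matrix.mulVec_diagonal]
  rw [h, h, herm_smul_left, herm_smul_right, ← mul_assoc, ← pow_succ', mem_mu.1 hu, one_mul]

theorem card_mu [Fintype F] (hF : Fintype.card F = q ^ 2) : Nat.card ↥(mu F q) = q + 1 := by
  rw [mu, IsCyclic.card_powMonoidHom_ker, card_units_eq hF]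
  exact Nat.gcd_eq_right (dvd_mul_left _ _)

/-- Scalar unitary matrices. -/
def scalarGU (n : ℕ) (F : Type*) [Field F] (q : ℕ) : ↥(mu F q) →* ↥(Cfsg.GU n F q) :=
  ((GeneralLinearGroup.scalar (Fin n)).comp (mu F q).subtype).codRestrict _ fun u => scalar_mem_GU u.2

@[simp] theorem coe_scalarGU (u : ↥(mu F q)) :
    (scalarGU n F q u : GL (Fin n) F) = GeneralLinearGroup.scalar (Fin n) (u : Fˣ) := rfl

theorem conjPSU_scalarGU (u : ↥(mu F q)) : (conjPSU (scalarGU n F q u) : MulAut (Cfsg.PSU n F q)) = 1 :=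
  conjPSU_eq_one_of_scalar (c := ((u : Fˣ) : F)) (by rw [gmat, coe_scalarGU, GeneralLinearGroup.coe_scalar])

theorem scalarGU_comm (u : ↥(mu F q)) (g : ↥(Cfsg.GU n F q)) : scalarGU n F q u * g = g * scalarGU n F q u :=
  Subtype.ext (GeneralLinearGroup.scalar_commute (u : Fˣ) g.1)

/-- `h · σ h ⋯ σ^(k-1) h`. -/
noncomputable def twist (σ : RingAut F) (h : ↥(Cfsg.GU n F q)) : ℕ → ↥(Cfsg.GU n F q)
  | 0 => 1
  | k + 1 => h * mapGU σ (twist σ h k)

theorem coe_twist (σ : RingAut F) (h : ↥(Cfsg.GU n F q)) (k : ℕ) :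
    (twist σ h k : GL (Fin n) F) = AutPSL.twistProd σ h.1 k := by
  induction k with
  | zero => rfl
  | succ k ih =>
    change h.1 * (mapGU σ (twist σ h k) : GL (Fin n) F) = h.1 * AutPSL.glAut σ _
    rw [coe_mapGU, ih]

theorem mapPSU_one : (mapPSU (1 : RingAut F) : MulAut (Cfsg.PSU n F q)) = 1 := mapPSU_refl

theorem mapPSU_pow (σ : RingAut F) (k : ℕ) :
    (mapPSU σ : MulAut (Cfsg.PSU n F q)) ^ k = mapPSU (σ ^ k) := by
  induction k with
  | zero => rw [pow_zero, pow_zero, mapPSU_one]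
  | succ k ih => rw [pow_succ', ih, pow_succ', mapPSU_mul]

theorem conj_map_pow (σ : RingAut F) (h : ↥(Cfsg.GU n F q)) (k : ℕ) :
    (conjPSU h * mapPSU σ : MulAut (Cfsg.PSU n F q)) ^ k = conjPSU (twist σ h k) * mapPSU (σ ^ k) := by
  induction k with
  | zero =>
    rw [pow_zero, pow_zero, mapPSU_one, mul_one]
    exact (map_one conjPSUHom).symm
  | succ k ih => rw [pow_succ', ih, twist_twist, pow_succ']; rfl

theorem conj_map_conj_inv (σ : RingAut F) (g : ↥(Cfsg.GU n F q)) :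
    (conjPSU g * mapPSU σ * (conjPSU g)⁻¹ : MulAut (Cfsg.PSU n F q)) =
      conjPSU (g * (mapGU σ g)⁻¹) * mapPSU σ := by
  rw [mul_assoc, conjPSU, conjPSU, ← map_inv, mapPSU_mul_conjPSU, ← mul_assoc, ← map_mul, map_inv (mapGU σ)]

theorem exists_scalar_of_conj_eq_one [Fintype F] (hF : Fintype.card F = q ^ 2) (hn : 3 ≤ n)
    {g : ↥(Cfsg.GU n F q)} (h : (conjPSU g : MulAut (Cfsg.PSU n F q)) = 1) :
    ∃ u : ↥(mu F q), g = scalarGU n F q u := by
  obtain ⟨m, rfl⟩ : ∃ m, n = m + 2 := ⟨n - 2, by omega⟩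
  obtain ⟨⟨a, ha⟩, -⟩ := eq_one_of_conj_map_eq_one hF (by omega) (g := g) (σ := 1)
    (by rw [mapPSU_one, mul_one]; exact h)
  have hU := gmat_mulVec_herm g (Pi.single 0 1) (Pi.single 0 1)
  have e1 : gmat g *ᵥ (Pi.single 0 1) = a • (Pi.single 0 1 : Fin (m + 2) → F) := by
    rw [ha]; funext i; simp [Matrix.scalar_apply, Matrix.mulVec_diagonal]
  rw [e1, herm_smul_left, herm_smul_right, ← mul_assoc, ← pow_succ', herm_single_single hF] at hU
  simp only [if_true, mul_one] at hU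
  have ha0 : a ≠ 0 := fun h0 => by rw [h0, zero_pow (Nat.succ_ne_zero q)] at hU; exact zero_ne_one hU
  refine ⟨⟨Units.mk0 a ha0, mem_mu.2 hU⟩, Subtype.ext (Units.ext ?_)⟩
  rw [coe_scalarGU, GeneralLinearGroup.coe_scalar]
  exact ha

theorem eq_one_of_mapPSU_eq_one [Fintype F] (hF : Fintype.card F = q ^ 2) (hn : 3 ≤ n) {σ : RingAut F}
    (h : (mapPSU σ : MulAut (Cfsg.PSU n F q)) = 1) : σ = 1 := by
  obtain ⟨m, rfl⟩ : ∃ m, n = m + 2 := ⟨n - 2, by omega⟩
  exact (eq_one_of_conj_map_eq_one (m := m) hF (by omega) (g := 1) (σ := σ)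
    (by rw [conjPSU, map_one, one_mul]; exact h)).2

theorem orderOf_mapPSU [Fintype F] (hF : Fintype.card F = q ^ 2) (hn : 3 ≤ n) (σ : RingAut F) :
    orderOf (mapPSU σ : MulAut (Cfsg.PSU n F q)) = orderOf σ := by
  refine orderOf_eq_orderOf_iff.2 fun k => ?_
  rw [mapPSU_pow]
  exact ⟨eq_one_of_mapPSU_eq_one hF hn, fun h => by rw [h, mapPSU_one]⟩

theorem inn_normal : (Cfsg.Inn (Cfsg.PSU n F q)).Normal := by
  refine ⟨fun x hx β => ?_⟩
  obtain ⟨y, rfl⟩ := hx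
  exact ⟨β y, MulEquiv.ext fun z => by simp⟩

theorem inndiag_normal [Fintype F] (hF : Fintype.card F = q ^ 2) (hn : 3 ≤ n) (hs : ¬ (n = 3 ∧ q = 2)) :
    (Cfsg.inndiagPSU n F q).Normal := by
  obtain ⟨m, rfl⟩ : ∃ m, n = m + 2 := ⟨n - 2, by omega⟩
  obtain ⟨p, hp⟩ := CharP.exists F
  haveI : Fact p.Prime := ⟨CharP.char_is_prime F p⟩
  refine ⟨fun x hx β => ?_⟩
  rw [inndiag_eq_range] at hx ⊢
  obtain ⟨g, rfl⟩ := hx
  obtain ⟨a, τ, rfl⟩ := exists_decomposition hF p (by omega) hs β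
  refine ⟨a * mapGU τ g * a⁻¹, ?_⟩
  rw [map_mul, map_mul, map_inv, _root_.mul_inv_rev]
  have := mapPSU_mul_conjPSU (q := q) τ g
  simp only [conjPSU] at this ⊢
  calc conjPSUHom a * conjPSUHom (mapGU τ g) * (conjPSUHom a)⁻¹
      = conjPSUHom a * (conjPSUHom (mapGU τ g) * mapPSU τ) * (mapPSU τ)⁻¹ * (conjPSUHom a)⁻¹ := by group
    _ = _ := by rw [← this]; group

/-- The data of a subfield of odd degree. -/
structure Sub (F : Type*) [Field F] (q : ℕ) (σ : RingAut F) (F₀ : Type*) [Field F₀] (q₀ r : ℕ)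
    (e : F₀ →+* F) : Prop where
  fixed : ∀ x, σ x = x ↔ ∃ y, e y = x
  order : orderOf σ = r
  odd : Odd r
  hq : q = q₀ ^ r
  pow : ∀ x : F₀, e x ^ q = e (x ^ q₀)

variable {F₀ : Type*} [Field F₀] {q₀ r : ℕ} {e : F₀ →+* F} {σ : RingAut F}

theorem sub_of_card [Fintype F₀] (hF₀ : Fintype.card F₀ = q₀ ^ 2)
    (he : ∀ x, σ x = x ↔ ∃ y, e y = x) (hr : orderOf σ = r) (hodd : Odd r) (hq : q = q₀ ^ r) :
    Sub F q σ F₀ q₀ r e := by
  refine ⟨he, hr, hodd, hq, fun x => ?_⟩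
  have key : ∀ j, x ^ q₀ ^ (2 * j + 1) = x ^ q₀ := by
    intro j
    induction j with
    | zero => simp
    | succ j ih =>
      rw [show 2 * (j + 1) + 1 = 2 + (2 * j + 1) by ring, pow_add, pow_mul, ← hF₀, FiniteField.pow_card, ih]
  obtain ⟨j, rfl⟩ := hodd
  rw [← map_pow, hq, key]

theorem map_mem_GU₀ (hS : Sub F q σ F₀ q₀ r e) [Fintype F] [Fintype F₀] (hF : Fintype.card F = q ^ 2)
    (hF₀ : Fintype.card F₀ = q₀ ^ 2) {g₀ : GL (Fin n) F₀} (hg : g₀ ∈ Cfsg.GU n F₀ q₀) :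
    GeneralLinearGroup.map e g₀ ∈ Cfsg.GU n F q := by
  rw [mem_GU_iff_cjT hF]
  change cjT q (g₀.1.map e) * g₀.1.map e = 1
  rw [show cjT q (g₀.1.map e) = (cjT q₀ g₀.1).map e by ext i j; simp [cjT, hS.pow], ← Matrix.map_mul,
    (mem_GU_iff_cjT hF₀).1 hg, Matrix.map_one _ (map_zero e) (map_one e)]

/-- Unitary matrices over the subfield. -/
def liftGU [Fintype F] [Fintype F₀] (hS : Sub F q σ F₀ q₀ r e) (hF : Fintype.card F = q ^ 2)
    (hF₀ : Fintype.card F₀ = q₀ ^ 2) : ↥(Cfsg.GU n F₀ q₀) →* ↥(Cfsg.GU n F q) :=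
  ((GeneralLinearGroup.map e).comp (Cfsg.GU n F₀ q₀).subtype).codRestrict _ fun g => map_mem_GU₀ hS hF hF₀ g.2

theorem coe_liftGU [Fintype F] [Fintype F₀] (hS : Sub F q σ F₀ q₀ r e) (hF : Fintype.card F = q ^ 2)
    (hF₀ : Fintype.card F₀ = q₀ ^ 2) (g : ↥(Cfsg.GU n F₀ q₀)) :
    (liftGU hS hF hF₀ g : GL (Fin n) F) = GeneralLinearGroup.map e g.1 := rfl

variable [Fintype F] [Fintype F₀] (hS : Sub F q σ F₀ q₀ r e) (hF : Fintype.card F = q ^ 2)
  (hF₀ : Fintype.card F₀ = q₀ ^ 2)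
include hS hF hF₀

/-- A `σ`-fixed norm-one unit is a twisted norm of a norm-one unit. -/
theorem exists_norm_mu {c : Fˣ} (hc : c ∈ mu F q) (hfix : σ (c : F) = c) :
    ∃ u ∈ mu F q, AutPSL.normProd σ u r = c := by
  obtain ⟨c₀, hc₀⟩ := (hS.fixed _).1 hfix
  have hc1 : c₀ * c₀ ^ q₀ = 1 := e.injective (by
    rw [map_mul, map_one, ← hS.pow, hc₀, ← pow_succ']; exact mem_mu.1 hc)
  obtain ⟨τ, hτ, hτ1, hτ2⟩ := LinAlg.Witt.exists_conjAut hF₀
  have hτo : orderOf (τ : RingAut F₀) = 2 := orderOf_eq_prime (RingEquiv.ext hτ2) hτ1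
  have hc00 : c₀ ≠ 0 := fun h => by rw [h, zero_mul] at hc1; exact zero_ne_one hc1
  obtain ⟨z, hz⟩ := AutPSL.exists_units_descent (σ := (τ : RingAut F₀)) hτo (by norm_num) (u := Units.mk0 c₀ hc00)
    (Units.ext (by simp [AutPSL.normProd, hτ, hc1]))
  have hz' : c₀ * (z : F₀) ^ q₀ = z := by
    have := congrArg Units.val hz
    rwa [Units.val_mul, Units.val_mk0, AutPSL.coe_unitsAut, hτ] at this
  set d : Fˣ := Units.map e.toMonoidHom z with hd
  obtain ⟨w, hw⟩ := AutPSL.exists_normProd_eq hS.order hS.odd.pos (c := d) ((hS.fixed _).2 ⟨z, rfl⟩)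
  have hnp : AutPSL.normHom σ r w = d := hw
  refine ⟨w / w ^ q, ?_, ?_⟩
  · rw [mem_mu, Units.val_div_eq_div_val, Units.val_pow_eq_pow_val, div_pow, pow_succ, pow_succ (n := q),
      pow_q_q hF]
    have hne := w.ne_zero
    field_simp
  · rw [← AutPSL.normHom_apply, map_div, map_pow, hnp]
    refine Units.ext ?_
    rw [Units.val_div_eq_div_val, Units.val_pow_eq_pow_val, ← hc₀, hd]
    change e z / e z ^ q = e c₀
    rw [hS.pow, div_eq_iff (by simp), ← map_mul, hz']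

/-- Hilbert 90 in the unitary group. -/
theorem exists_gu_descent {h : ↥(Cfsg.GU n F q)} (hh : twist σ h r = 1) :
    ∃ g : ↥(Cfsg.GU n F q), h * mapGU σ g = g := by
  obtain ⟨g0, hg0⟩ := AutPSL.exists_gl_descent hS.order hS.odd.pos (h := h.1)
    (by rw [← coe_twist, hh, Subgroup.coe_one])
  have e0 : g0.1 = h.1.1 * g0.1.map σ := (congrArg Units.val hg0).symm
  have hcm : ∀ X : Matrix (Fin n) (Fin n) F, cjT q (X.map σ) = (cjT q X).map σ := fun X => by
    ext i j; simp [cjT]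
  set H : Matrix (Fin n) (Fin n) F := cjT q g0.1 * g0.1 with hH
  have hHσ : H.map σ = H := by
    rw [hH]
    conv_rhs => rw [e0, cjT_mul hF, Matrix.mul_assoc, ← Matrix.mul_assoc (cjT q h.1.1),
      (mem_GU_iff_cjT hF).1 h.2, Matrix.one_mul, hcm, ← Matrix.map_mul]
  choose H₀ hH₀ using fun i j => (hS.fixed (H i j)).1 (congrFun (congrFun hHσ i) j)
  have hmap : (Matrix.of H₀).map e = H := by ext i j; exact hH₀ i j
  have hHH : cjT q₀ (Matrix.of H₀) = Matrix.of H₀ := by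
    refine Matrix.map_injective e.injective ?_
    beta_reduce
    rw [show (cjT q₀ (Matrix.of H₀)).map e = cjT q ((Matrix.of H₀).map e) by ext i j; simp [cjT, hS.pow], hmap,
      hH, cjT_mul hF, cjT_cjT hF]
  have hHu : IsUnit (Matrix.of H₀) := by
    rw [Matrix.isUnit_iff_isUnit_det, isUnit_iff_ne_zero]
    intro h0
    have : H.det = 0 := by rw [← hmap, ← RingHom.mapMatrix_apply, ← RingHom.map_det, h0, map_zero]
    exact ((Matrix.isUnit_iff_isUnit_det H).1 ((isUnit_cjT hF g0.isUnit).mul g0.isUnit)).ne_zero this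
  obtain ⟨Z, hZu, -, hZ⟩ := exists_cjT_mul_self hF₀ hHH hHu
  obtain ⟨X, rfl⟩ := hZu
  set X' : GL (Fin n) F := GeneralLinearGroup.map e X⁻¹ with hX'
  have hX'σ : AutPSL.glAut σ X' = X' := Units.ext (by ext i j; exact (hS.fixed _).2 ⟨_, rfl⟩)
  have hmem : g0 * X' ∈ Cfsg.GU n F q := by
    rw [mem_GU_iff_cjT hF, Units.val_mul, cjT_mul hF, Matrix.mul_assoc, ← Matrix.mul_assoc (cjT q g0.1), ← hH,
      ← hmap, ← hZ]
    change cjT q (((X⁻¹ : GL (Fin n) F₀) : Matrix (Fin n) (Fin n) F₀).map e) *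
      ((cjT q₀ X.1 * X.1).map e * ((X⁻¹ : GL (Fin n) F₀) : Matrix (Fin n) (Fin n) F₀).map e) = 1
    rw [← Matrix.map_mul, Matrix.mul_assoc, Units.mul_inv, Matrix.mul_one,
      show ∀ M : Matrix (Fin n) (Fin n) F₀, cjT q (M.map e) = (cjT q₀ M).map e from
        fun M => by ext i j; simp [cjT, hS.pow],
      ← Matrix.map_mul, ← cjT_mul hF₀, Units.mul_inv, cjT_one hF₀, Matrix.map_one _ (map_zero e) (map_one e)]
  refine ⟨⟨g0 * X', hmem⟩, Subtype.ext ?_⟩
  rw [Subgroup.coe_mul, coe_mapGU, map_mul, hX'σ, ← mul_assoc, hg0]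

/-- An element `conj h * σ` with `r`-th power one is conjugate to `σ`. -/
theorem exists_twist_conj (hn : 3 ≤ n) (h : ↥(Cfsg.GU n F q))
    (hpow : (conjPSU h * mapPSU σ : MulAut (Cfsg.PSU n F q)) ^ r = 1) :
    ∃ g : ↥(Cfsg.GU n F q), (conjPSU h * mapPSU σ : MulAut (Cfsg.PSU n F q)) =
      conjPSU g * mapPSU σ * (conjPSU g)⁻¹ := by
  rw [conj_map_pow, ← hS.order, pow_orderOf_eq_one, mapPSU_one, mul_one, hS.order] at hpow
  obtain ⟨c, hc⟩ := exists_scalar_of_conj_eq_one hF hn hpow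
  have hfix : σ ((c : Fˣ) : F) = (c : Fˣ) := by
    have h1 : twist σ h (r + 1) = h * mapGU σ (twist σ h r) := rfl
    have h2 := congrArg Subtype.val h1
    rw [coe_twist, AutPSL.twistProd_succ', ← coe_twist, hc, ← hS.order, pow_orderOf_eq_one, AutPSL.glAut_one,
      coe_scalarGU, Subgroup.coe_mul, coe_mapGU, coe_scalarGU, AutPSL.glAut_scalar,
      GeneralLinearGroup.scalar_commute] at h2
    have hi : Nonempty (Fin n) := ⟨⟨0, by omega⟩⟩
    have h3 := mul_left_cancel h2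
    have h4 := congrArg (fun z : GL (Fin n) F => (z : Matrix (Fin n) (Fin n) F) ⟨0, by omega⟩ ⟨0, by omega⟩) h3
    simpa [GeneralLinearGroup.coe_scalar] using h4.symm
  obtain ⟨u, hu, hnu⟩ := exists_norm_mu hS hF hF₀ (c := (c : Fˣ)⁻¹) (inv_mem c.2)
    (by rw [Units.val_inv_eq_inv_val, map_inv₀, hfix])
  obtain ⟨g, hg⟩ := exists_gu_descent hS hF hF₀ (h := scalarGU n F q ⟨u, hu⟩ * h) (Subtype.ext (by
    rw [coe_twist, Subgroup.coe_mul, coe_scalarGU, AutPSL.twistProd_scalar_mul, ← coe_twist, hc, hnu, coe_scalarGU,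
      ← map_mul, inv_mul_cancel, map_one, Subgroup.coe_one]))
  refine ⟨g, ?_⟩
  rw [conj_map_conj_inv, ← eq_mul_inv_of_mul_eq hg, conjPSU, conjPSU, map_mul conjPSUHom,
    show conjPSUHom (scalarGU n F q ⟨u, hu⟩) = (1 : MulAut (Cfsg.PSU n F q)) from conjPSU_scalarGU _, one_mul]

/-- Commuting with `σ` means rational up to scalars. -/
theorem commute_iff (hn : 3 ≤ n) (g : ↥(Cfsg.GU n F q)) :
    (conjPSU g : MulAut (Cfsg.PSU n F q)) * mapPSU σ = mapPSU σ * conjPSU g ↔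
      ∃ (u : ↥(mu F q)) (g₀ : ↥(Cfsg.GU n F₀ q₀)), g = scalarGU n F q u * liftGU hS hF hF₀ g₀ := by
  constructor
  · intro h
    rw [mapPSU_mul_conjPSU, mul_left_inj] at h
    obtain ⟨l, hl⟩ := exists_scalar_of_conj_eq_one hF hn (g := mapGU σ g * g⁻¹)
      (by rw [conjPSU, map_mul, map_inv]; exact mul_inv_eq_one.mpr h.symm)
    have hg : AutPSL.glAut σ g.1 = GeneralLinearGroup.scalar (Fin n) (l : Fˣ) * g.1 := by
      rw [← coe_scalarGU, ← Subgroup.coe_mul, ← hl, inv_mul_cancel_right, coe_mapGU]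
    have hk : ∀ k, AutPSL.glAut (σ ^ k) g.1 = GeneralLinearGroup.scalar (Fin n) (AutPSL.normProd σ (l : Fˣ) k) * g.1 := by
      intro k
      induction k with
      | zero => simp [AutPSL.normProd, AutPSL.glAut_one]
      | succ k ih =>
        rw [pow_succ', ← AutPSL.glAut_glAut, ih, map_mul, AutPSL.glAut_scalar, hg, ← mul_assoc, ← map_mul]
        simp only [AutPSL.normProd, mul_comm ((l : Fˣ))]
    have hN : AutPSL.normProd σ (l : Fˣ) r = 1 := by
      have h3 := hk r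
      rw [← hS.order, pow_orderOf_eq_one, AutPSL.glAut_one, hS.order] at h3
      have h4 := congrArg (fun z : GL (Fin n) F => (z : Matrix (Fin n) (Fin n) F) ⟨0, by omega⟩ ⟨0, by omega⟩)
        (mul_eq_right.mp h3.symm)
      exact Units.ext (by simpa [GeneralLinearGroup.coe_scalar] using h4)
    obtain ⟨k0, hk0⟩ := AutPSL.exists_units_descent hS.order hS.odd.pos hN
    have hl1 : ((l : Fˣ) : F) ^ (q + 1) = 1 := mem_mu.1 l.2
    have hk0' : ((l : Fˣ) : F) * σ (k0 : F) = k0 := congrArg Units.val hk0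
    have ht : σ ((k0 : F) ^ (q + 1)) = (k0 : F) ^ (q + 1) := by
      conv_rhs => rw [← hk0', mul_pow, hl1, one_mul]
      rw [map_pow]
    obtain ⟨t₀, ht₀⟩ := (hS.fixed _).1 ht
    have ht₀q : t₀ ^ q₀ = t₀ := e.injective (by rw [← hS.pow, ht₀, norm_pow_q hF])
    obtain ⟨s, hs⟩ := exists_norm_eq hF₀ ht₀q
    have hs0 : e s ≠ 0 := by
      intro h0
      have hs00 : s = 0 := e.injective (h0.trans e.map_zero.symm)
      rw [hs00, zero_pow (Nat.succ_ne_zero _)] at hs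
      rw [← hs, map_zero] at ht₀
      exact k0.ne_zero ((pow_eq_zero_iff (Nat.succ_ne_zero q)).1 ht₀.symm)
    have hkmu : k0 / Units.mk0 (e s) hs0 ∈ mu F q := by
      rw [mem_mu, Units.val_div_eq_div_val, Units.val_mk0, div_pow, ← ht₀, pow_succ (e s), hS.pow, ← map_mul,
        ← pow_succ, hs, div_self]
      rw [ht₀]
      exact pow_ne_zero _ k0.ne_zero
    set g' : ↥(Cfsg.GU n F q) := scalarGU n F q ⟨_, hkmu⟩ * g with hg'
    have hfix : AutPSL.glAut σ g'.1 = g'.1 := by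
      rw [hg', Subgroup.coe_mul, coe_scalarGU, map_mul, AutPSL.glAut_scalar, hg, ← mul_assoc, ← map_mul]
      congr 2
      refine Units.ext ?_
      rw [Units.val_mul, AutPSL.coe_unitsAut, Units.val_div_eq_div_val, Units.val_mk0, map_div₀,
        (hS.fixed _).2 ⟨s, rfl⟩, div_mul_eq_mul_div, mul_comm, hk0']
    choose a ha using fun i j => (hS.fixed (g'.1.1 i j)).1 (congrFun (congrFun (congrArg (fun z : GL (Fin n) F => (z : Matrix (Fin n) (Fin n) F)) hfix) i) j)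
    have hA : (Matrix.of a).map e = g'.1.1 := by ext i j; exact ha i j
    have hu1 : cjT q₀ (Matrix.of a) * Matrix.of a = 1 := by
      refine Matrix.map_injective e.injective ?_
      beta_reduce
      rw [Matrix.map_mul, show (cjT q₀ (Matrix.of a)).map e = cjT q ((Matrix.of a).map e) by
        ext i j; simp [cjT, hS.pow], hA, (mem_GU_iff_cjT hF).1 g'.2, Matrix.map_one _ (map_zero e) (map_one e)]
    let gl₀ : GL (Fin n) F₀ := ⟨Matrix.of a, cjT q₀ (Matrix.of a), mul_eq_one_comm.1 hu1, hu1⟩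
    refine ⟨(⟨_, hkmu⟩ : ↥(mu F q))⁻¹, ⟨gl₀, (mem_GU_iff_cjT hF₀).2 hu1⟩, ?_⟩
    rw [map_inv, eq_inv_mul_iff_mul_eq]
    exact Subtype.ext (Units.ext hA.symm)
  · rintro ⟨u, g₀, rfl⟩
    rw [conjPSU, map_mul conjPSUHom, show conjPSUHom (scalarGU n F q u) = (1 : MulAut (Cfsg.PSU n F q)) from
      conjPSU_scalarGU u, one_mul, mapPSU_mul_conjPSU]
    congr 2
    refine Subtype.ext (Units.ext ?_)
    ext i j
    exact ((hS.fixed _).2 ⟨g₀.1.1 i j, rfl⟩).symm

/-- The centraliser of a standard field automorphism. -/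
theorem centralizer_equiv (hn : 3 ≤ n) :
    Nonempty (↥(Cfsg.inndiagPSU n F q ⊓ Subgroup.centralizer {(mapPSU σ : MulAut (Cfsg.PSU n F q))}) ≃*
      Cfsg.PGU n F₀ q₀) := by
  let ρ : ↥(Cfsg.GU n F₀ q₀) →* MulAut (Cfsg.PSU n F q) := conjPSUHom.comp (liftGU hS hF hF₀)
  have hrange : ρ.range = Cfsg.inndiagPSU n F q ⊓ Subgroup.centralizer {(mapPSU σ : MulAut (Cfsg.PSU n F q))} := by
    rw [inndiag_eq_range]
    ext β
    rw [Subgroup.mem_inf, Subgroup.mem_centralizer_singleton_iff]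
    constructor
    · rintro ⟨g₀, rfl⟩
      exact ⟨⟨_, rfl⟩, (commute_iff hS hF hF₀ hn _).2 ⟨1, g₀, by rw [map_one, one_mul]⟩⟩
    · rintro ⟨⟨g, rfl⟩, hg⟩
      obtain ⟨u, g₀, rfl⟩ := (commute_iff hS hF hF₀ hn g).1 hg
      refine ⟨g₀, ?_⟩
      change conjPSUHom (liftGU hS hF hF₀ g₀) = _
      rw [map_mul conjPSUHom (scalarGU n F q u), show conjPSUHom (scalarGU n F q u) =
        (1 : MulAut (Cfsg.PSU n F q)) from conjPSU_scalarGU u, one_mul]
  have hker : ρ.ker = (Cfsg.Geo.scalars (Fin n) F₀).subgroupOf (Cfsg.GU n F₀ q₀) := by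
    ext g₀
    rw [MonoidHom.mem_ker, Subgroup.mem_subgroupOf, Cfsg.Geo.mem_scalars_iff]
    constructor
    · intro h
      obtain ⟨u, hu⟩ := exists_scalar_of_conj_eq_one hF hn (g := liftGU hS hF hF₀ g₀) h
      have hval : ∀ i j, e ((g₀.1 : Matrix (Fin n) (Fin n) F₀) i j) = if i = j then ((u : Fˣ) : F) else 0 := fun i j => by
        have h' := congrArg (fun z : ↥(Cfsg.GU n F q) => z.1.1 i j) hu
        simp only [coe_liftGU, coe_scalarGU, GeneralLinearGroup.coe_scalar] at h'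
        refine h'.trans ?_
        rw [Matrix.scalar_apply, Matrix.diagonal_apply]
      let o : Fin n := ⟨0, by omega⟩
      have ho : (g₀.1 : Matrix (Fin n) (Fin n) F₀) o o ≠ 0 := fun h0 => (u : Fˣ).ne_zero (by
        have := hval o o; rw [h0, map_zero, if_pos rfl] at this; exact this.symm)
      refine ⟨Units.mk0 _ ho, ?_⟩
      ext i j
      apply e.injective
      rw [hval i j]
      by_cases hij : i = j
      · subst hij
        simp [hval o o]
      · simp [hij]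
    · rintro ⟨c, hc⟩
      refine conjPSU_eq_one_of_scalar (c := e (c : F₀)) ?_
      change g₀.1.1.map e = _
      rw [hc]
      ext i j
      by_cases hij : i = j
      · subst hij; simp
      · simp [hij]
  rw [← hrange]
  exact ⟨(QuotientGroup.quotientKerEquivRange ρ).symm.trans (QuotientGroup.quotientMulEquivOfEq hker)⟩

/-- Split count of a standard field automorphism. -/
theorem splitCount (hn : 3 ≤ n) :
    Cfsg.splitClassCount (Cfsg.inndiagPSU n F q) (Cfsg.Inn (Cfsg.PSU n F q)) (mapPSU σ) =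
      Nat.gcd n ((q + 1) / (q₀ + 1)) := by
  have hpow : ∀ {u₀ : F₀ˣ}, u₀ ∈ mu F₀ q₀ → Units.map e.toMonoidHom u₀ ∈ mu F q := fun {u₀} hu => by
    rw [mem_mu] at hu ⊢
    change (e (u₀ : F₀)) ^ (q + 1) = 1
    rw [pow_succ, hS.pow, ← map_mul, ← pow_succ, hu, map_one]
  let ι₀ : ↥(mu F₀ q₀) →* ↥(mu F q) :=
    ((Units.map e.toMonoidHom).comp (mu F₀ q₀).subtype).codRestrict _ fun u => hpow u.2
  have hι : Function.Injective ι₀ := fun a b h =>
    Subtype.ext (Units.map_injective e.injective (congrArg Subtype.val h))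
  have hidx : ι₀.range.index = (q + 1) / (q₀ + 1) := by
    have h1 : Nat.card ι₀.range = q₀ + 1 := by
      rw [← Nat.card_congr (MonoidHom.ofInjective hι).toEquiv]
      exact card_mu hF₀
    have h2 := ι₀.range.index_mul_card
    rw [h1, card_mu hF] at h2
    rw [← h2, Nat.mul_div_cancel _ (by omega)]
  have hrd : ∀ g : ↥(Cfsg.GU n F q), detGU g ∈ mu F q := fun g => by
    rw [mu, ← range_detGU hF (by omega : 1 ≤ n)]
    exact ⟨g, rfl⟩
  let D0 : ↥(Cfsg.GU n F q) →* ↥(mu F q) := detGU.codRestrict _ hrd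
  haveI : IsCyclic ↥(mu F q) := inferInstance
  rw [← hidx, ← AutPSL.index_pow_sup ι₀.range n, Subgroup.index_eq_card, inndiag_eq_range]
  refine AutPSL.splitClassCount_eq_card _ _ (fun a k hk => inn_normal.conj_mem k hk _) _
    ((QuotientGroup.mk' ((powMonoidHom n : ↥(mu F q) →* ↥(mu F q)).range ⊔ ι₀.range)).comp D0) (fun y => ?_)
    fun a => ?_
  · obtain ⟨t, rfl⟩ := QuotientGroup.mk_surjective y
    obtain ⟨g, hg, hgt⟩ := exists_GU_det (n := n) (by omega) (t := ((t : Fˣ) : F)) (mem_mu.1 t.2)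
    exact ⟨⟨g, hg⟩, congrArg QuotientGroup.mk (Subtype.ext (Units.ext hgt))⟩
  rw [MonoidHom.comp_apply, QuotientGroup.mk'_apply, QuotientGroup.eq_one_iff]
  have hdsc : ∀ u : ↥(mu F q), D0 (scalarGU n F q u) = u ^ n := fun u => by
    refine Subtype.ext (Units.ext ?_)
    change (GeneralLinearGroup.scalar (Fin n) (u : Fˣ)).1.det = _
    rw [GeneralLinearGroup.coe_scalar, Matrix.scalar_apply, Matrix.det_diagonal, Finset.prod_const, Finset.card_univ,
      Fintype.card_fin, SubmonoidClass.coe_pow, Units.val_pow_eq_pow_val]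
  constructor
  · intro ha
    obtain ⟨_, ⟨u, rfl⟩, _, ⟨w, rfl⟩, hd⟩ := Subgroup.mem_sup.mp ha
    obtain ⟨b, hb, hbt⟩ := exists_GU_det (F := F₀) (q := q₀) (n := n) (by omega) (t := ((w : F₀ˣ) : F₀)) (mem_mu.1 w.2)
    set d : ↥(Cfsg.GU n F q) := scalarGU n F q u * liftGU hS hF hF₀ ⟨b, hb⟩ with hdd
    have hD : D0 d = D0 a := by
      rw [hdd, map_mul, hdsc, ← hd, powMonoidHom_apply]
      congr 1
      refine Subtype.ext (Units.ext ?_)
      change ((b.1).map e).det = e ((w : F₀ˣ) : F₀)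
      rw [← RingHom.mapMatrix_apply, ← RingHom.map_det]
      exact congrArg e hbt
    obtain ⟨s, hs⟩ : a * d⁻¹ ∈ (suToGU : ↥(Cfsg.SU n F q) →* ↥(Cfsg.GU n F q)).range := by
      rw [← ker_detGU, MonoidHom.mem_ker]
      have : D0 (a * d⁻¹) = 1 := by rw [map_mul, map_inv, hD, mul_inv_cancel]
      exact congrArg Subtype.val this
    refine ⟨MulAut.conj (QuotientGroup.mk s), ⟨_, rfl⟩, ?_⟩
    rw [← conjPSU_suToGU, hs]
    have hc := (commute_iff hS hF hF₀ hn d).2 ⟨u, ⟨b, hb⟩, rfl⟩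
    change conjPSUHom a * _ * (conjPSUHom a)⁻¹ = conjPSUHom (a * d⁻¹) * _ * (conjPSUHom (a * d⁻¹))⁻¹
    rw [map_mul conjPSUHom a d⁻¹, map_inv, _root_.mul_inv_rev, inv_inv]
    calc conjPSUHom a * mapPSU σ * (conjPSUHom a)⁻¹
        = conjPSUHom a * ((conjPSUHom d)⁻¹ * (conjPSUHom d * mapPSU σ)) * (conjPSUHom a)⁻¹ := by group
      _ = _ := by rw [hc]; group
  · rintro ⟨k, hk, ek⟩
    obtain ⟨y, rfl⟩ := hk
    obtain ⟨s, rfl⟩ := QuotientGroup.mk_surjective y
    rw [← conjPSU_suToGU] at ek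
    obtain ⟨u, g₀, hu⟩ := (commute_iff hS hF hF₀ hn ((suToGU s)⁻¹ * a)).1 (by
      change conjPSUHom _ * _ = _ * conjPSUHom _
      rw [map_mul, map_inv]
      calc (conjPSUHom (suToGU s))⁻¹ * conjPSUHom a * mapPSU σ
          = (conjPSUHom (suToGU s))⁻¹ * (conjPSUHom a * mapPSU σ * (conjPSUHom a)⁻¹) * conjPSUHom a := by group
        _ = _ := by rw [ek]; group)
    have hs1 : D0 (suToGU s) = 1 := by
      refine Subtype.ext ?_
      change detGU (suToGU s) = 1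
      rw [← MonoidHom.mem_ker, ker_detGU]
      exact ⟨s, rfl⟩
    have h1 : D0 a = D0 (scalarGU n F q u * liftGU hS hF hF₀ g₀) := by
      rw [← hu, map_mul D0 (suToGU s)⁻¹, map_inv, hs1, inv_one, one_mul]
    rw [h1, map_mul, hdsc]
    refine Subgroup.mul_mem_sup ⟨u, rfl⟩ ?_
    have hdm : Matrix.GeneralLinearGroup.det g₀.1 ∈ mu F₀ q₀ := by
      rw [mu, ← range_detGU hF₀ (by omega : 1 ≤ n)]
      exact ⟨g₀, rfl⟩
    exact ⟨⟨_, hdm⟩, Subtype.ext (Units.ext (RingHom.map_det e g₀.1.1))⟩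

omit hS hF hF₀ in
/-- The data attached to an automorphism of odd prime order of the field with `q²` elements. -/
theorem exists_sub {p f : ℕ} [Fact p.Prime] (hq : q = p ^ f) (hf : 1 ≤ f) (hF : Fintype.card F = q ^ 2)
    {r : ℕ} (hr : r.Prime) (hσ : orderOf σ = r) (hodd : Odd r) (K : Type*) [Field K] [Fintype K]
    (hK : Fintype.card K = p ^ (2 * (f / r))) :
    r ∣ f ∧ Fintype.card K = (p ^ (f / r)) ^ 2 ∧ ∃ e : K →+* F, Sub F q σ K (p ^ (f / r)) r e := by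
  have hF' : Fintype.card F = p ^ (2 * f) := by rw [hF, hq, ← pow_mul, mul_comm]
  have h2 : r ∣ 2 * f := AutPSL.even_of_involution hF' (by omega) hσ
  have hrf : r ∣ f := (hr.dvd_mul.1 h2).resolve_left fun h => by
    obtain rfl := (Nat.prime_dvd_prime_iff_eq hr Nat.prime_two).1 h
    exact absurd hodd (by decide)
  have hK' : Fintype.card K = (p ^ (f / r)) ^ 2 := by rw [hK, ← pow_mul, mul_comm]
  obtain ⟨e, he⟩ := AutPSL.exists_fixed_embedding hF' hσ hr.pos h2 K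
    (by rw [hK, Nat.mul_div_assoc _ hrf])
  exact ⟨hrf, hK', e, sub_of_card hK' he hσ hodd (by rw [hq, ← pow_mul, Nat.div_mul_cancel hrf])⟩

end CfsgLib.AutPSUField
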